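import Cfsg.Agent.Lib.Helper57.OE.Defs
import Cfsg.Agent.Lib.Helper58.Asch.L0a

set_option autoImplicit false

namespace Cfsg.Agent.Lib.Helper37.OE

open Cfsg Cfsg.Geo Matrix Cfsg.Agent.Lib.Helper13.Asch Cfsg.Agent.Lib.Helper90.Sp
open scoped Kronecker MatrixGroups

variable {ι : Type} [Fintype ι] [DecidableEq ι] {F : Type*} [Field F] {Q : (ι → F) → F}

/-- the polar form as a Mathlib bilinear form -/
noncomputable def polB (hQ : IsNondegenerateQuadraticForm Q) : LinearMap.BilinForm F (ι → F) :=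
  LinearMap.mk₂ F (QuadraticMap.polar Q) hQ.polar_bilinear.add_left hQ.polar_bilinear.smul_left
    hQ.polar_bilinear.add_right hQ.polar_bilinear.smul_right

theorem polB_apply (hQ : IsNondegenerateQuadraticForm Q) (u v : ι → F) :
    polB hQ u v = QuadraticMap.polar Q u v := rfl

theorem polB_isRefl (hQ : IsNondegenerateQuadraticForm Q) : (polB hQ).IsRefl := by
  intro u v h
  rw [polB_apply] at h ⊢
  rw [QuadraticMap.polar_comm]
  exact h

theorem isCompl_orth (hQ : IsNondegenerateQuadraticForm Q) (W : Submodule F (ι → F))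
    (hnd : IsNondegenerateOn (QuadraticMap.polar Q) W) :
    IsCompl W ((polB hQ).orthogonal W) := by
  rw [LinearMap.BilinForm.isCompl_orthogonal_iff_disjoint (polB_isRefl hQ)]
  rw [Submodule.disjoint_def]
  intro x hx hx'
  by_contra h0
  obtain ⟨⟨y, hy, hxy⟩, -⟩ := hnd x hx h0
  exact hxy (hx' y hy)

/-- P6a -/
theorem compl_nondeg (hQ : IsNondegenerateQuadraticForm Q) {H : Subgroup (GL ι F)}
    (hH : FixesQuadForm (matrixSet H) Q) (W : Submodule F (ι → F))
    (hnd : IsNondegenerateOn (QuadraticMap.polar Q) W) (hHW : H ≤ subspaceStabilizer W) :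
    ∃ W' : Submodule F (ι → F), IsNondegenerateOn (QuadraticMap.polar Q) W' ∧
      H ≤ subspaceStabilizer W' ∧ Module.finrank F W + Module.finrank F W' = Fintype.card ι := by
  have hc := isCompl_orth hQ W hnd
  refine ⟨(polB hQ).orthogonal W, ?_, ?_, ?_⟩
  · have key : ∀ w ∈ (polB hQ).orthogonal W, w ≠ 0 →
        ∃ x ∈ (polB hQ).orthogonal W, QuadraticMap.polar Q x w ≠ 0 := by
      intro w hw hw0
      obtain ⟨⟨x, hx⟩, -⟩ := hQ.nondegenerate w hw0
      have hxt : x ∈ W ⊔ (polB hQ).orthogonal W := by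
        rw [hc.sup_eq_top]; trivial
      obtain ⟨a, ha, b, hb, rfl⟩ := Submodule.mem_sup.1 hxt
      refine ⟨b, hb, ?_⟩
      rw [hQ.polar_bilinear.add_left] at hx
      have h0 : QuadraticMap.polar Q a w = 0 := hw a ha
      rwa [h0, zero_add] at hx
    intro w hw hw0
    obtain ⟨x, hx, hxw⟩ := key w hw hw0
    exact ⟨⟨x, hx, hxw⟩, ⟨x, hx, by rwa [QuadraticMap.polar_comm]⟩⟩
  · apply Cfsg.Agent.Lib.Helper58.Asch.le_subspaceStabilizer
    rintro s ⟨g, hg, rfl⟩ v hv
    obtain ⟨u, hu, rfl⟩ := hv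
    intro w hw
    show QuadraticMap.polar Q w _ = 0
    rw [Matrix.toLin'_apply]
    -- w = g (g⁻¹ w)
    have hginv : g⁻¹ ∈ H := inv_mem hg
    have hw' : ((g⁻¹ : GL ι F) : Matrix ι ι F) *ᵥ w ∈ W := (hHW hginv w).1 hw
    have hww : w = (g : Matrix ι ι F) *ᵥ (((g⁻¹ : GL ι F) : Matrix ι ι F) *ᵥ w) := by
      rw [Matrix.mulVec_mulVec, ← Units.val_mul, mul_inv_cancel, Units.val_one, Matrix.one_mulVec]
    have hpol : ∀ a b : ι → F, QuadraticMap.polar Q ((g : Matrix ι ι F) *ᵥ a)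
        ((g : Matrix ι ι F) *ᵥ b) = QuadraticMap.polar Q a b := by
      intro a b
      have hf := hH (g : Matrix ι ι F) ⟨g, hg, rfl⟩
      unfold QuadraticMap.polar
      rw [← Matrix.mulVec_add, hf, hf, hf]
    rw [hww, hpol]
    exact hu _ hw'
  · rw [Submodule.finrank_add_eq_of_isCompl hc, Module.finrank_fintype_fun_eq_card]

end Cfsg.Agent.Lib.Helper37.OE
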