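import Cfsg.Agent.Lib.Helper57.OE.Defs
import Cfsg.Agent.Lib.Helper55.Asch.DecCore
import Cfsg.Agent.Lib.Helper37.OE.P6a

set_option autoImplicit false

namespace Cfsg.Agent.Lib.Helper37.OE

open Cfsg Cfsg.Geo Matrix Cfsg.Agent.Lib.Helper13.Asch Cfsg.Agent.Lib.Helper90.Sp
open scoped Kronecker MatrixGroups

variable {ι : Type} [Fintype ι] [DecidableEq ι] {F : Type*} [Field F] {Q : (ι → F) → F}

theorem Q_zero (hQ : IsNondegenerateQuadraticForm Q) : Q 0 = 0 := by
  simpa using hQ.smul 0 0

theorem Q_add (u v : ι → F) : Q (u + v) = Q u + Q v + QuadraticMap.polar Q u v := by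
  unfold QuadraticMap.polar; ring

theorem Q_sum (hQ : IsNondegenerateQuadraticForm Q) {α : Type*} (s : Finset α) (x : α → ι → F)
    (h : ∀ i ∈ s, ∀ j ∈ s, i ≠ j → QuadraticMap.polar Q (x i) (x j) = 0) :
    Q (∑ i ∈ s, x i) = ∑ i ∈ s, Q (x i) := by
  classical
  induction s using Finset.induction_on with
  | empty => simp [Q_zero hQ]
  | insert a s ha ih =>
    rw [Finset.sum_insert ha, Finset.sum_insert ha, Q_add (Q := Q),
      ih (fun i hi j hj => h i (Finset.mem_insert_of_mem hi) j (Finset.mem_insert_of_mem hj))]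
    have : QuadraticMap.polar Q (x a) (∑ i ∈ s, x i) = 0 := by
      rw [← polB_apply hQ, map_sum]
      apply Finset.sum_eq_zero
      intro j hj
      rw [polB_apply]
      exact h a (Finset.mem_insert_self _ _) j (Finset.mem_insert_of_mem hj)
        (by rintro rfl; exact ha hj)
    rw [this, add_zero]

/-- the vectors whose coordinates in the blocks of `T` vanish -/
def vanish {t k : ℕ} (Φ : (ι → F) ≃ₗ[F] (Fin t → Fin k → F)) (T : Fin t → Prop) :
    Submodule F (ι → F) where
  carrier := {v | ∀ i, T i → Φ v i = 0}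
  add_mem' := by
    intro a b ha hb i hi
    rw [map_add, Pi.add_apply, ha i hi, hb i hi, add_zero]
  zero_mem' := by
    intro i _
    simp
  smul_mem' := by
    intro c x hx i hi
    rw [map_smul, Pi.smul_apply, hx i hi, smul_zero]

theorem mem_vanish {t k : ℕ} (Φ : (ι → F) ≃ₗ[F] (Fin t → Fin k → F)) (T : Fin t → Prop)
    (v : ι → F) : v ∈ vanish Φ T ↔ ∀ i, T i → Φ v i = 0 := Iff.rfl

/-- P1a -/
theorem halves_of_even_decomp (hQ : IsNondegenerateQuadraticForm Q) {t k : ℕ}
    (D : Fin t → Submodule F (ι → F)) (hD : IsOrthogonalMDecomposition Q k D) (ht : Even t) :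
    ∃ (W W' : Submodule F (ι → F)) (φ : (ι → F) →ₗ[F] (ι → F)), IsCompl W W' ∧
      (∀ w ∈ W, ∀ w' ∈ W', QuadraticMap.polar Q w w' = 0) ∧
      (∀ w ∈ W, φ w ∈ W' ∧ Q (φ w) = Q w) ∧ 2 * Module.finrank F W = Fintype.card ι := by
  classical
  obtain ⟨s, rfl⟩ := ht
  obtain ⟨Φ, hΦ⟩ := Cfsg.Agent.Lib.Helper55.Asch.exists_coord hD.decomp.decomp
  let c : Fin (s + s) → (ι → F) →ₗ[F] (ι → F) := fun i =>
    Φ.symm.toLinearMap ∘ₗ LinearMap.single F (fun _ => Fin k → F) i ∘ₗ LinearMap.proj i ∘ₗ
      Φ.toLinearMap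
  have hc_apply : ∀ i v, Φ (c i v) = Pi.single i (Φ v i) := by
    intro i v
    simp [c]
  have hc_mem : ∀ i v, c i v ∈ D i := by
    intro i v
    rw [hΦ]
    intro j hj
    rw [hc_apply]
    exact Pi.single_eq_of_ne hj _
  have hc_sum : ∀ v, ∑ i, c i v = v := by
    intro v
    apply Φ.injective
    rw [map_sum]
    simp_rw [hc_apply]
    exact Finset.univ_sum_single (Φ v)
  have hc_zero : ∀ i v, Φ v i = 0 → c i v = 0 := by
    intro i v h
    apply Φ.injective
    rw [hc_apply, h]
    simp
  let π : Fin (s + s) → Fin (s + s) := fun i =>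
    ⟨if i.val < s then i.val + s else i.val - s, by have := i.2; split_ifs <;> omega⟩
  have hπv : ∀ i, (π i).val = if i.val < s then i.val + s else i.val - s := fun i => rfl
  have hπ : Function.Injective π := by
    intro i j h
    have h' := congrArg Fin.val h
    rw [hπv, hπv] at h'
    apply Fin.ext
    split_ifs at h' <;> omega
  choose ε hε using fun i => hD.isometric i (π i)
  let φ : (ι → F) →ₗ[F] (ι → F) :=
    ∑ i, (D (π i)).subtype ∘ₗ (ε i).toLinearMap ∘ₗ (c i).codRestrict (D i) (hc_mem i)
  have hφ_apply : ∀ v, φ v = ∑ i, ((ε i ⟨c i v, hc_mem i v⟩ : D (π i)) : ι → F) := by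
    intro v
    simp only [φ, LinearMap.sum_apply]
    rfl
  have hQφ : ∀ v, Q (φ v) = Q v := by
    intro v
    have h1 : Q (φ v) = ∑ i, Q (c i v) := by
      rw [hφ_apply, Q_sum hQ]
      · exact Finset.sum_congr rfl (fun i _ => hε i _)
      · intro i _ j _ hij
        exact hD.decomp.orthogonal (π i) (π j) (fun h => hij (hπ h)) _ (ε i _).2 _ (ε j _).2
    have h2 : Q v = ∑ i, Q (c i v) := by
      conv_lhs => rw [← hc_sum v]
      rw [Q_sum hQ]
      intro i _ j _ hij
      exact hD.decomp.orthogonal i j hij _ (hc_mem i v) _ (hc_mem j v)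
    rw [h1, h2]
  have hA : ∀ T T' : Fin (s + s) → Prop, (∀ i, T' (π i) → T i) →
      ∀ w ∈ vanish Φ T, φ w ∈ vanish Φ T' := by
    intro T T' hTT w hw j hj
    rw [hφ_apply, map_sum, Finset.sum_apply]
    apply Finset.sum_eq_zero
    intro i _
    by_cases h : π i = j
    · subst h
      have h0 := hc_zero i w (hw i (hTT i hj))
      have h1 : (⟨c i w, hc_mem i w⟩ : D i) = 0 := Subtype.ext h0
      rw [h1, map_zero]
      simp
    · exact (hΦ (π i) _).1 (ε i _).2 j (Ne.symm h)
  have hpol : ∀ u v, QuadraticMap.polar Q (φ u) (φ v) = QuadraticMap.polar Q u v := by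
    intro u v
    unfold QuadraticMap.polar
    rw [← map_add, hQφ, hQφ, hQφ]
  have hinj : Function.Injective φ := by
    rw [injective_iff_map_eq_zero]
    intro v hv
    by_contra h0
    obtain ⟨⟨x, hx⟩, -⟩ := hQ.nondegenerate v h0
    apply hx
    rw [← hpol, hv, ← polB_apply hQ, map_zero]
  have hle : ∀ T T' : Fin (s + s) → Prop, (∀ i, T' (π i) → T i) →
      Module.finrank F (vanish Φ T) ≤ Module.finrank F (vanish Φ T') := by
    intro T T' hTT
    refine LinearMap.finrank_le_finrank_of_injective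
      (f := φ.restrict (hA T T' hTT)) ?_
    intro a b hab
    apply Subtype.ext
    apply hinj
    exact congrArg Subtype.val hab
  have hcompl : IsCompl (vanish Φ (fun i => ¬ i.val < s)) (vanish Φ (fun i => i.val < s)) := by
    constructor
    · rw [Submodule.disjoint_def]
      intro x hx hx'
      apply Φ.injective
      rw [map_zero]
      funext i
      by_cases hi : i.val < s
      · exact hx' i hi
      · exact hx i hi
    · rw [codisjoint_iff, eq_top_iff]
      intro v _
      rw [Submodule.mem_sup]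
      refine ⟨Φ.symm (fun i => if i.val < s then Φ v i else 0), ?_,
        Φ.symm (fun i => if i.val < s then 0 else Φ v i), ?_, ?_⟩
      · intro i hi
        rw [LinearEquiv.apply_symm_apply, if_neg hi]
      · intro i hi
        rw [LinearEquiv.apply_symm_apply, if_pos hi]
      · apply Φ.injective
        rw [map_add, LinearEquiv.apply_symm_apply, LinearEquiv.apply_symm_apply]
        funext i
        by_cases hi : i.val < s
        · simp [hi]
        · simp [hi]
  refine ⟨vanish Φ (fun i => ¬ i.val < s), vanish Φ (fun i => i.val < s), φ, hcompl, ?_, ?_, ?_⟩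
  · intro w hw w' hw'
    rw [← hc_sum w, ← hc_sum w', ← polB_apply hQ, map_sum]
    apply Finset.sum_eq_zero
    intro j _
    rw [map_sum, LinearMap.sum_apply]
    apply Finset.sum_eq_zero
    intro i _
    rw [polB_apply]
    by_cases hij : i = j
    · subst hij
      by_cases hi : i.val < s
      · rw [hc_zero i w' (hw' i hi), ← polB_apply hQ, map_zero]
      · rw [hc_zero i w (hw i hi), ← polB_apply hQ, map_zero, LinearMap.zero_apply]
    · exact hD.decomp.orthogonal i j hij _ (hc_mem i w) _ (hc_mem j w')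
  · intro w hw
    refine ⟨hA _ _ ?_ w hw, hQφ w⟩
    intro i hi
    rw [hπv] at hi
    split_ifs at hi <;> omega
  · have h1 := hle (fun i => ¬ i.val < s) (fun i => i.val < s) (by
      intro i hi
      rw [hπv] at hi
      split_ifs at hi <;> omega)
    have h2 := hle (fun i => i.val < s) (fun i => ¬ i.val < s) (by
      intro i hi
      rw [hπv] at hi
      have := i.2
      split_ifs at hi <;> omega)
    have h3 := Submodule.finrank_add_eq_of_isCompl hcompl
    rw [Module.finrank_fintype_fun_eq_card] at h3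
    omega

end Cfsg.Agent.Lib.Helper37.OE
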