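import Cfsg.Agent.Lib.Helper57.OE.Defs

set_option autoImplicit false

namespace Cfsg.Agent.Lib.Helper37.OE

open Cfsg Cfsg.Geo Matrix Cfsg.Agent.Lib.Helper13.Asch Cfsg.Agent.Lib.Helper90.Sp
open scoped Kronecker MatrixGroups

variable {ι : Type} [Fintype ι] [DecidableEq ι] {F : Type*} [Field F] {Q : (ι → F) → F}

theorem polar_self_eq (hQ : IsNondegenerateQuadraticForm Q) (v : ι → F) :
    QuadraticMap.polar Q v v = 2 * Q v := by
  have h := hQ.smul 2 v
  unfold QuadraticMap.polar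
  rw [← two_smul F v, h]
  ring

/-- P6c -/
theorem span_nondeg (h2 : (2 : F) ≠ 0) (hQ : IsNondegenerateQuadraticForm Q) (v : ι → F)
    (hv : Q v ≠ 0) : IsNondegenerateOn (QuadraticMap.polar Q) (Submodule.span F {v}) ∧
      Module.finrank F (Submodule.span F {v}) = 1 := by
  have hv0 : v ≠ 0 := by
    rintro rfl
    apply hv
    have := hQ.smul 0 0
    simpa using this
  refine ⟨?_, finrank_span_singleton hv0⟩
  intro w hw hw0
  obtain ⟨c, rfl⟩ := Submodule.mem_span_singleton.1 hw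
  have hc : c ≠ 0 := by
    rintro rfl
    simp at hw0
  have hvm : v ∈ Submodule.span F {v} := Submodule.mem_span_singleton_self v
  refine ⟨⟨v, hvm, ?_⟩, ⟨v, hvm, ?_⟩⟩
  · rw [hQ.polar_bilinear.smul_right, polar_self_eq hQ]
    exact mul_ne_zero hc (mul_ne_zero h2 hv)
  · rw [hQ.polar_bilinear.smul_left, polar_self_eq hQ]
    exact mul_ne_zero hc (mul_ne_zero h2 hv)

end Cfsg.Agent.Lib.Helper37.OE
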