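import Cfsg.Agent.Lib.Helper57.OE.Defs
import Cfsg.Agent.Lib.Helper78.Sp.E2
import Cfsg.Agent.Lib.Helper37.OE.P6c

set_option autoImplicit false

namespace Cfsg.Agent.Lib.Helper37.OE

open Cfsg Cfsg.Geo Matrix Cfsg.Agent.Lib.Helper13.Asch Cfsg.Agent.Lib.Helper90.Sp
open scoped Kronecker MatrixGroups

variable {ι : Type} [Fintype ι] [DecidableEq ι] {F : Type*} [Field F] {Q : (ι → F) → F}

/-- P6b -/
theorem odd_card_of_odd_nondeg [Fintype F] (hQ : IsNondegenerateQuadraticForm Q)
    (W : Submodule F (ι → F)) (hnd : IsNondegenerateOn (QuadraticMap.polar Q) W)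
    (hodd : Odd (Module.finrank F W)) : Odd (Fintype.card F) := by
  by_contra hne
  have hev : Even (Fintype.card F) := Nat.not_odd_iff_even.1 hne
  have h2 : (2 : F) = 0 := by
    have hch : ringChar F = 2 := by
      by_contra h
      exact hne (Nat.odd_iff.2 (FiniteField.odd_card_of_char_ne_two h))
    have : CharP F 2 := ringChar.of_eq hch
    exact CharTwo.two_eq_zero
  have hneg : ∀ x : F, -x = x := by
    intro x
    have : x + x = 0 := by rw [← two_mul, h2, zero_mul]
    exact neg_eq_of_add_eq_zero_left this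
  have hs : IsSymplecticForm (QuadraticMap.polar Q) :=
    { bilinear := hQ.polar_bilinear
      skew := fun v w => by rw [hneg, QuadraticMap.polar_comm]
      alternating := fun v => by rw [polar_self_eq hQ, h2, zero_mul]
      nondegenerate := hQ.nondegenerate }
  have := Cfsg.Agent.Lib.Helper78.Sp.even_finrank_of_nondegenerateOn hs W hnd
  exact (Nat.not_even_iff_odd.2 hodd) this

end Cfsg.Agent.Lib.Helper37.OE
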