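import Cfsg.Agent.Lib.Helper57.OE.Defs

set_option autoImplicit false

namespace Cfsg.Agent.Lib.Helper37.OE

open Cfsg Cfsg.Geo Matrix Cfsg.Agent.Lib.Helper13.Asch Cfsg.Agent.Lib.Helper90.Sp
open scoped Kronecker MatrixGroups

variable {ι : Type} [Fintype ι] [DecidableEq ι] {F : Type*} [Field F] {Q : (ι → F) → F}

open Polynomial in
/-- P3a -/
theorem binary_zero [Fintype F] (F₀ : Subfield F) (hcard : Fintype.card F = Nat.card F₀ ^ 2)
    (a b c : F) (ha : a ∈ F₀) (hb : b ∈ F₀) (hc : c ∈ F₀) :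
    ∃ x y : F, (x ≠ 0 ∨ y ≠ 0) ∧ a * x ^ 2 + b * x * y + c * y ^ 2 = 0 := by
  by_cases ha0 : a = 0
  · exact ⟨1, 0, Or.inl one_ne_zero, by simp [ha0]⟩
  set a' : F₀ := ⟨a, ha⟩ with ha'
  set b' : F₀ := ⟨b, hb⟩ with hb'
  set c' : F₀ := ⟨c, hc⟩ with hc'
  have ha'0 : a' ≠ 0 := by
    intro h
    exact ha0 (congrArg Subtype.val h)
  set p : F₀[X] := C a' * X ^ 2 + C b' * X + C c' with hp
  have hdeg : p.natDegree = 2 := natDegree_quadratic ha'0
  have hnu : ¬ IsUnit p := by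
    intro h
    have := natDegree_eq_zero_of_isUnit h
    omega
  have hp0 : p ≠ 0 := by
    intro h
    rw [h] at hdeg
    simp at hdeg
  obtain ⟨g, hg, hgp⟩ := WfDvdMonoid.exists_irreducible_factor hnu hp0
  have hg1 : 0 < g.natDegree := hg.natDegree_pos
  have hg2 : g.natDegree ≤ 2 := hdeg ▸ natDegree_le_of_dvd hgp hp0
  have hgd : g.natDegree ∣ 2 := by
    have : g.natDegree = 1 ∨ g.natDegree = 2 := by omega
    rcases this with h | h <;> rw [h]
    norm_num
  have hdvd := hg.natDegree_dvd_iff_dvd_X_pow_card_pow_sub_X.1 hgd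
  have hsp : ((X ^ Fintype.card F - X : F₀[X]).map (algebraMap F₀ F)).Splits :=
    (FiniteField.isSplittingField_sub F F₀).splits
  rw [← hcard] at hdvd
  have hne : (X ^ Fintype.card F - X : F₀[X]).map (algebraMap F₀ F) ≠ 0 := by
    rw [Polynomial.map_ne_zero_iff (algebraMap F₀ F).injective]
    exact FiniteField.X_pow_card_sub_X_ne_zero F₀ Fintype.one_lt_card
  have hgs : (g.map (algebraMap F₀ F)).Splits :=
    hsp.of_dvd hne (Polynomial.map_dvd _ hdvd)
  obtain ⟨t, ht⟩ := hgs.exists_eval_eq_zero (by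
    rw [degree_map]
    intro h
    have := natDegree_eq_zero_iff_degree_le_zero.2 h.le
    omega)
  have hpt : (p.map (algebraMap F₀ F)).eval t = 0 := by
    obtain ⟨r, hr⟩ := hgp
    rw [hr, Polynomial.map_mul, eval_mul, ht, zero_mul]
  refine ⟨t, 1, Or.inr one_ne_zero, ?_⟩
  rw [hp] at hpt
  simp only [Polynomial.map_add, Polynomial.map_mul, Polynomial.map_pow, map_C, map_X, eval_add,
    eval_mul, eval_C, eval_pow, eval_X] at hpt
  have e1 : algebraMap F₀ F a' = a := rfl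
  have e2 : algebraMap F₀ F b' = b := rfl
  have e3 : algebraMap F₀ F c' = c := rfl
  rw [e1, e2, e3] at hpt
  rw [← hpt]
  ring

end Cfsg.Agent.Lib.Helper37.OE
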