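import Cfsg.Agent.Lib.Helper99.Sp.T3b

set_option autoImplicit false

/-! # Omega12+ (S5871) farm of helper99: pieces YK1, YK1', YK2 (helper37) -/

namespace Cfsg.Agent.Lib.Helper37.OE

open Cfsg Matrix Cfsg.Agent.Lib.Helper99.Sp
open scoped Kronecker MatrixGroups

variable {F : Type*} [Field F]

/-- the Gram matrix of the polar form of the determinant on `F² ⊗ F²`
(reducible copy of helper99's `Om4`). -/
abbrev Om4 (F : Type*) [Field F] : Matrix (Fin 2 × Fin 2) (Fin 2 × Fin 2) F := JJ F ⊗ₖ JJ F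

/-- YK1 -/
theorem skew_om4 (h2 : (2 : F) ≠ 0) (X : Matrix (Fin 2 × Fin 2) (Fin 2 × Fin 2) F)
    (hX : Xᵀ * Om4 F = -(Om4 F * X)) :
    ∃ a b : Matrix (Fin 2) (Fin 2) F, a.trace = 0 ∧ b.trace = 0 ∧
      X = a ⊗ₖ (1 : Matrix (Fin 2) (Fin 2) F) + (1 : Matrix (Fin 2) (Fin 2) F) ⊗ₖ b := by
  have E : ∀ i j k l : Fin 2, (Xᵀ * Om4 F) (i, j) (k, l) = (-(Om4 F * X)) (i, j) (k, l) := by
    intro i j k l; rw [hX]
  simp only [Om4, JJ, Matrix.mul_apply, Fintype.sum_prod_type, Fin.sum_univ_two,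
    kroneckerMap_apply, Matrix.neg_apply, Matrix.transpose_apply] at E
  have e0000 := E 0 0 0 0
  have e0001 := E 0 0 0 1
  have e0010 := E 0 0 1 0
  have e0011 := E 0 0 1 1
  have e0100 := E 0 1 0 0
  have e0101 := E 0 1 0 1
  have e0110 := E 0 1 1 0
  have e0111 := E 0 1 1 1
  have e1000 := E 1 0 0 0
  have e1001 := E 1 0 0 1
  have e1010 := E 1 0 1 0
  have e1011 := E 1 0 1 1
  have e1100 := E 1 1 0 0
  have e1101 := E 1 1 0 1
  have e1110 := E 1 1 1 0
  have e1111 := E 1 1 1 1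
  clear E
  simp at e0000 e0001 e0010 e0011 e0100 e0101 e0110 e0111 e1000 e1001 e1010 e1011 e1100 e1101 e1110 e1111
  have z : ∀ x : F, x = -x → x = 0 := by
    intro x hx
    have : (2 : F) * x = 0 := by linear_combination hx
    rcases mul_eq_zero.1 this with h | h
    · exact absurd h h2
    · exact h
  have z1 := z _ e0000
  have z2 := z _ e0101.symm
  have z3 := z _ e1010.symm
  have z4 := z _ e1111
  obtain ⟨t, ht⟩ : ∃ t : F, 2 * t = 1 := ⟨2⁻¹, mul_inv_cancel₀ h2⟩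
  refine ⟨!![t * (X (0, 0) (0, 0) - X (1, 0) (1, 0)), X (0, 0) (1, 0); X (1, 0) (0, 0),
      -(t * (X (0, 0) (0, 0) - X (1, 0) (1, 0)))],
    !![t * (X (0, 0) (0, 0) - X (0, 1) (0, 1)), X (0, 0) (0, 1); X (0, 1) (0, 0),
      -(t * (X (0, 0) (0, 0) - X (0, 1) (0, 1)))], by simp [Matrix.trace_fin_two],
      by simp [Matrix.trace_fin_two], ?_⟩
  ext ⟨i, j⟩ ⟨k, l⟩
  fin_cases i <;> fin_cases j <;> fin_cases k <;> fin_cases l <;>
    simp [kroneckerMap_apply, Matrix.add_apply] <;> grind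

/-- YK1' -/
theorem skew_om4_left (a : Matrix (Fin 2) (Fin 2) F) (ha : a.trace = 0) :
    (a ⊗ₖ (1 : Matrix (Fin 2) (Fin 2) F))ᵀ * Om4 F =
      -(Om4 F * (a ⊗ₖ (1 : Matrix (Fin 2) (Fin 2) F))) := by
  rw [Matrix.trace_fin_two] at ha
  ext ⟨i, j⟩ ⟨k, l⟩
  fin_cases i <;> fin_cases j <;> fin_cases k <;> fin_cases l <;>
    simp [Om4, JJ, Matrix.mul_apply, Fintype.sum_prod_type, Fin.sum_univ_two,
      kroneckerMap_apply, Matrix.neg_apply, Matrix.transpose_apply] <;> grind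

/-- YK2 -/
theorem sq_scalar_om4 (h2 : (2 : F) ≠ 0) (a b : Matrix (Fin 2) (Fin 2) F) (ha : a.trace = 0)
    (hb : b.trace = 0) (c : F)
    (h : (a ⊗ₖ (1 : Matrix (Fin 2) (Fin 2) F) + (1 : Matrix (Fin 2) (Fin 2) F) ⊗ₖ b) *
      (a ⊗ₖ (1 : Matrix (Fin 2) (Fin 2) F) + (1 : Matrix (Fin 2) (Fin 2) F) ⊗ₖ b) = c • 1) :
    a = 0 ∨ b = 0 := by
  rw [Matrix.trace_fin_two] at ha hb
  have E : ∀ i j k l : Fin 2,
      ((a ⊗ₖ (1 : Matrix (Fin 2) (Fin 2) F) + (1 : Matrix (Fin 2) (Fin 2) F) ⊗ₖ b) *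
      (a ⊗ₖ (1 : Matrix (Fin 2) (Fin 2) F) + (1 : Matrix (Fin 2) (Fin 2) F) ⊗ₖ b)) (i, j) (k, l)
        = (c • (1 : Matrix (Fin 2 × Fin 2) (Fin 2 × Fin 2) F)) (i, j) (k, l) := by
    intro i j k l; rw [h]
  simp only [Matrix.mul_apply, Fintype.sum_prod_type, Fin.sum_univ_two,
    kroneckerMap_apply, Matrix.add_apply, Matrix.smul_apply] at E
  have e0000 := E 0 0 0 0
  have e0001 := E 0 0 0 1
  have e0010 := E 0 0 1 0
  have e0011 := E 0 0 1 1
  have e0100 := E 0 1 0 0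
  have e0101 := E 0 1 0 1
  have e0110 := E 0 1 1 0
  have e0111 := E 0 1 1 1
  have e1000 := E 1 0 0 0
  have e1001 := E 1 0 0 1
  have e1010 := E 1 0 1 0
  have e1011 := E 1 0 1 1
  have e1100 := E 1 1 0 0
  have e1101 := E 1 1 0 1
  have e1110 := E 1 1 1 0
  have e1111 := E 1 1 1 1
  clear E
  simp at e0000 e0001 e0010 e0011 e0100 e0101 e0110 e0111 e1000 e1001 e1010 e1011 e1100 e1101 e1110 e1111
  have z : ∀ x y : F, 2 * (x * y) = 0 → x * y = 0 := by
    intro x y hx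
    rcases mul_eq_zero.1 hx with h | h
    · exact absurd h h2
    · exact h
  have a11 : a 1 1 = - a 0 0 := by linear_combination ha
  have b11 : b 1 1 = - b 0 0 := by linear_combination hb
  simp only [a11, b11] at e0000 e0001 e0010 e0100 e0101 e1000
  have qt := z (a 0 1) (b 0 1) (by linear_combination e0011)
  have qu := z (a 0 1) (b 1 0) (by linear_combination e0110)
  have rt := z (a 1 0) (b 0 1) (by linear_combination e1001)
  have ru := z (a 1 0) (b 1 0) (by linear_combination e1100)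
  have pt := z (a 0 0) (b 0 1) (by linear_combination e0001)
  have pu := z (a 0 0) (b 1 0) (by linear_combination e0100)
  have qs := z (a 0 1) (b 0 0) (by linear_combination e0010)
  have rs := z (a 1 0) (b 0 0) (by linear_combination e1000)
  have ps := z (a 0 0) (b 0 0) (z _ _ (by linear_combination e0000 - e0101))
  have fin : ∀ x : F, x ≠ 0 → x * b 0 0 = 0 → x * b 0 1 = 0 → x * b 1 0 = 0 → b = 0 := by
    intro x hx h1 h3 h4
    have k1 := (mul_eq_zero.1 h1).resolve_left hx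
    have k2 := (mul_eq_zero.1 h3).resolve_left hx
    have k3 := (mul_eq_zero.1 h4).resolve_left hx
    ext i j
    fin_cases i <;> fin_cases j <;> simp [k1, k2, k3, b11]
  by_cases hp : a 0 0 = 0
  · by_cases hq : a 0 1 = 0
    · by_cases hr : a 1 0 = 0
      · left
        ext i j
        fin_cases i <;> fin_cases j <;> simp [hp, hq, hr, a11]
      · exact Or.inr (fin _ hr rs rt ru)
    · exact Or.inr (fin _ hq qs qt qu)
  · exact Or.inr (fin _ hp ps pt pu)

end Cfsg.Agent.Lib.Helper37.OE
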