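import Cfsg.Agent.Lib.Helper37.OE.YK1

set_option autoImplicit false

/-! # Omega12+ (S5871) farm of helper99: piece YK3 (helper37) -/

namespace Cfsg.Agent.Lib.Helper37.OE

open Cfsg Matrix Cfsg.Agent.Lib.Helper99.Sp
open scoped Kronecker MatrixGroups

variable {F : Type*} [Field F]

theorem traceless_sq (a : Matrix (Fin 2) (Fin 2) F) (ha : a.trace = 0) :
    a * a = (-a.det) • (1 : Matrix (Fin 2) (Fin 2) F) := by
  rw [Matrix.trace_fin_two] at ha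
  have a11 : a 1 1 = - a 0 0 := by linear_combination ha
  ext i j
  fin_cases i <;> fin_cases j <;>
    simp [Matrix.mul_apply, Fin.sum_univ_two, Matrix.det_fin_two, a11] <;> ring

/-- YK3 -/
theorem om4_dichotomy (h2 : (2 : F) ≠ 0) (y : GL (Fin 2 × Fin 2) F) (μ : F)
    (hy : (y : Matrix _ _ F)ᵀ * Om4 F * (y : Matrix _ _ F) = μ • Om4 F) :
    (∀ X : Matrix (Fin 2) (Fin 2) F, ∃ X' : Matrix (Fin 2) (Fin 2) F,
      (y : Matrix _ _ F) * (X ⊗ₖ (1 : Matrix (Fin 2) (Fin 2) F)) * ((y⁻¹ : GL _ F) : Matrix _ _ F) =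
        X' ⊗ₖ (1 : Matrix (Fin 2) (Fin 2) F)) ∨
    (∀ X : Matrix (Fin 2) (Fin 2) F, ∃ X' : Matrix (Fin 2) (Fin 2) F,
      (y : Matrix _ _ F) * (X ⊗ₖ (1 : Matrix (Fin 2) (Fin 2) F)) * ((y⁻¹ : GL _ F) : Matrix _ _ F) =
        (1 : Matrix (Fin 2) (Fin 2) F) ⊗ₖ X') := by
  set Y : Matrix (Fin 2 × Fin 2) (Fin 2 × Fin 2) F := ↑y with hY
  set Yi : Matrix (Fin 2 × Fin 2) (Fin 2 × Fin 2) F := ↑(y⁻¹) with hYi
  have hYYi : Y * Yi = 1 := by
    rw [hY, hYi, ← Matrix.GeneralLinearGroup.coe_mul, mul_inv_cancel]; rfl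
  have hYiY : Yi * Y = 1 := by
    rw [hY, hYi, ← Matrix.GeneralLinearGroup.coe_mul, inv_mul_cancel]; rfl
  -- the two consequences of the similitude relation
  have r1 : Yᵀ * Om4 F = μ • (Om4 F * Yi) := by
    calc Yᵀ * Om4 F = Yᵀ * Om4 F * (Y * Yi) := by rw [hYYi, mul_one]
      _ = (Yᵀ * Om4 F * Y) * Yi := by simp only [Matrix.mul_assoc]
      _ = μ • (Om4 F * Yi) := by rw [hy, Matrix.smul_mul]
  have hYiT : Yiᵀ * Yᵀ = 1 := by rw [← Matrix.transpose_mul, hYYi, Matrix.transpose_one]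
  have r2 : Om4 F * Y = μ • (Yiᵀ * Om4 F) := by
    calc Om4 F * Y = (Yiᵀ * Yᵀ) * (Om4 F * Y) := by rw [hYiT, one_mul]
      _ = Yiᵀ * (Yᵀ * Om4 F * Y) := by simp only [Matrix.mul_assoc]
      _ = μ • (Yiᵀ * Om4 F) := by rw [hy, Matrix.mul_smul]
  -- skewness is preserved
  have skew : ∀ A : Matrix (Fin 2 × Fin 2) (Fin 2 × Fin 2) F, Aᵀ * Om4 F = -(Om4 F * A) →
      (Y * A * Yi)ᵀ * Om4 F = -(Om4 F * (Y * A * Yi)) := by
    intro A hA
    calc (Y * A * Yi)ᵀ * Om4 F = Yiᵀ * Aᵀ * (Yᵀ * Om4 F) := by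
          simp only [Matrix.transpose_mul, Matrix.mul_assoc]
      _ = μ • (Yiᵀ * (Aᵀ * Om4 F) * Yi) := by
          rw [r1, Matrix.mul_smul]; simp only [Matrix.mul_assoc]
      _ = -((μ • (Yiᵀ * Om4 F)) * A * Yi) := by
          rw [hA]; simp only [Matrix.mul_neg, Matrix.neg_mul, Matrix.smul_mul, Matrix.mul_assoc,
            smul_neg]
      _ = -(Om4 F * (Y * A * Yi)) := by rw [← r2]; simp only [Matrix.mul_assoc]
  -- the alternative for traceless matrices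
  have alt : ∀ a : Matrix (Fin 2) (Fin 2) F, a.trace = 0 →
      (∃ X' : Matrix (Fin 2) (Fin 2) F, Y * (a ⊗ₖ (1 : Matrix (Fin 2) (Fin 2) F)) * Yi =
        X' ⊗ₖ (1 : Matrix (Fin 2) (Fin 2) F)) ∨
      (∃ X' : Matrix (Fin 2) (Fin 2) F, Y * (a ⊗ₖ (1 : Matrix (Fin 2) (Fin 2) F)) * Yi =
        (1 : Matrix (Fin 2) (Fin 2) F) ⊗ₖ X') := by
    intro a ha
    obtain ⟨a', b', ha', hb', hZ⟩ := skew_om4 h2 _ (skew _ (skew_om4_left a ha))
    have hsq : (Y * (a ⊗ₖ (1 : Matrix (Fin 2) (Fin 2) F)) * Yi) *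
        (Y * (a ⊗ₖ (1 : Matrix (Fin 2) (Fin 2) F)) * Yi) = (-a.det) • 1 := by
      calc (Y * (a ⊗ₖ (1 : Matrix (Fin 2) (Fin 2) F)) * Yi) *
          (Y * (a ⊗ₖ (1 : Matrix (Fin 2) (Fin 2) F)) * Yi)
          = Y * (a ⊗ₖ (1 : Matrix (Fin 2) (Fin 2) F)) * (Yi * Y) *
            (a ⊗ₖ (1 : Matrix (Fin 2) (Fin 2) F)) * Yi := by simp only [Matrix.mul_assoc]
        _ = Y * ((a * a) ⊗ₖ ((1 : Matrix (Fin 2) (Fin 2) F) * 1)) * Yi := by
            rw [hYiY, mul_one, Matrix.mul_kronecker_mul]; simp only [Matrix.mul_assoc]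
        _ = (-a.det) • 1 := by
            rw [traceless_sq a ha, mul_one, Matrix.smul_kronecker, Matrix.one_kronecker_one,
              Matrix.mul_smul, Matrix.smul_mul, mul_one, hYYi]
    rw [hZ] at hsq
    rcases sq_scalar_om4 h2 a' b' ha' hb' _ hsq with h | h
    · right
      exact ⟨b', by rw [hZ, h]; simp⟩
    · left
      exact ⟨a', by rw [hZ, h]; simp⟩
  have hadd : ∀ a b : Matrix (Fin 2) (Fin 2) F,
      Y * ((a + b) ⊗ₖ (1 : Matrix (Fin 2) (Fin 2) F)) * Yi =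
      Y * (a ⊗ₖ (1 : Matrix (Fin 2) (Fin 2) F)) * Yi +
        Y * (b ⊗ₖ (1 : Matrix (Fin 2) (Fin 2) F)) * Yi := by
    intro a b
    rw [Matrix.add_kronecker, Matrix.mul_add, Matrix.add_mul]
  have hsc : ∀ t : F, Y * ((t • (1 : Matrix (Fin 2) (Fin 2) F)) ⊗ₖ
      (1 : Matrix (Fin 2) (Fin 2) F)) * Yi = t • 1 := by
    intro t
    rw [Matrix.smul_kronecker, Matrix.one_kronecker_one, Matrix.mul_smul, Matrix.smul_mul,
      mul_one, hYYi]
  -- decomposition of a general matrix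
  have dec : ∀ X : Matrix (Fin 2) (Fin 2) F, ∃ (t : F) (a : Matrix (Fin 2) (Fin 2) F),
      a.trace = 0 ∧ X = t • 1 + a := by
    intro X
    refine ⟨2⁻¹ * X.trace, X - (2⁻¹ * X.trace) • 1, ?_, by abel⟩
    rw [Matrix.trace_sub, Matrix.trace_smul, Matrix.trace_one]
    simp only [Fintype.card_fin, smul_eq_mul]
    push_cast
    field_simp
    ring
  by_cases hL : ∀ a : Matrix (Fin 2) (Fin 2) F, a.trace = 0 →
      ∃ X' : Matrix (Fin 2) (Fin 2) F, Y * (a ⊗ₖ (1 : Matrix (Fin 2) (Fin 2) F)) * Yi =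
        X' ⊗ₖ (1 : Matrix (Fin 2) (Fin 2) F)
  · left
    intro X
    obtain ⟨t, a, ha, rfl⟩ := dec X
    obtain ⟨X', hX'⟩ := hL a ha
    refine ⟨t • 1 + X', ?_⟩
    rw [hadd, hsc, hX', Matrix.add_kronecker, Matrix.smul_kronecker, Matrix.one_kronecker_one]
  · right
    push Not at hL
    obtain ⟨a1, ha1, hn1⟩ := hL
    have hR : ∀ a : Matrix (Fin 2) (Fin 2) F, a.trace = 0 →
      ∃ X' : Matrix (Fin 2) (Fin 2) F, Y * (a ⊗ₖ (1 : Matrix (Fin 2) (Fin 2) F)) * Yi =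
        (1 : Matrix (Fin 2) (Fin 2) F) ⊗ₖ X' := by
      intro a2 ha2
      by_contra hn2
      push Not at hn2
      obtain ⟨b1, hb1⟩ := (alt a1 ha1).resolve_left (by push Not; exact hn1)
      obtain ⟨c2, hc2⟩ := (alt a2 ha2).resolve_right (by push Not; exact hn2)
      have h12 : (a1 + a2).trace = 0 := by rw [Matrix.trace_add, ha1, ha2, add_zero]
      rcases alt (a1 + a2) h12 with ⟨c, hc⟩ | ⟨c, hc⟩
      · apply hn1 (c - c2)
        rw [hadd, hc2] at hc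
        have e : (c - c2) ⊗ₖ (1 : Matrix (Fin 2) (Fin 2) F) + c2 ⊗ₖ (1 : Matrix (Fin 2) (Fin 2) F)
            = c ⊗ₖ (1 : Matrix (Fin 2) (Fin 2) F) := by
          rw [← Matrix.add_kronecker, sub_add_cancel]
        rw [← hc] at e
        exact (add_right_cancel e).symm
      · apply hn2 (c - b1)
        rw [hadd, hb1] at hc
        have e : (1 : Matrix (Fin 2) (Fin 2) F) ⊗ₖ b1 + (1 : Matrix (Fin 2) (Fin 2) F) ⊗ₖ (c - b1)
            = (1 : Matrix (Fin 2) (Fin 2) F) ⊗ₖ c := by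
          rw [← Matrix.kronecker_add, add_sub_cancel]
        rw [← hc] at e
        exact (add_left_cancel e).symm
    intro X
    obtain ⟨t, a, ha, rfl⟩ := dec X
    obtain ⟨X', hX'⟩ := hR a ha
    refine ⟨t • 1 + X', ?_⟩
    rw [hadd, hsc, hX', Matrix.kronecker_add, Matrix.kronecker_smul, Matrix.one_kronecker_one]

end Cfsg.Agent.Lib.Helper37.OE
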